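import Mathlib

/-!
A group of order 1512 with the local structure of the Ree group over three elements.
-/

set_option autoImplicit false
set_option linter.unusedSectionVars false
set_option linter.style.haveILetI false

namespace CfsgLib.ReeThree

open Subgroup

/-- The local facts used. -/
structure Local (G : Type*) [Group G] (t : G) : Prop where
  card : Nat.card G = 1512
  inv : t * t = 1
  invConj : ∀ y : G, y * y = 1 → y ≠ 1 → IsConj y t
  cent : Nat.card (centralizer ({t} : Set G)) = 24
  sylCard : ∀ S : Sylow 2 G, Nat.card S = 8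
  sylSq : ∀ S : Sylow 2 G, ∀ x ∈ S, x * x = 1
  sylCent : ∀ S : Sylow 2 G, centralizer ((S : Subgroup G) : Set G) = S
  sylNorm : ∀ S : Sylow 2 G, Nat.card (normalizer ((S : Subgroup G) : Set G)) = 168
  three : ∀ U : Sylow 3 G, ¬ 7 ∣ Nat.card (normalizer ((U : Subgroup G) : Set G))
  noThree : ∀ O : Subgroup G, O.Normal → IsPGroup 3 O → O = ⊥
  two : ∃ a b : G, a ≠ 1 ∧ b ≠ 1 ∧ a * b ≠ 1 ∧ a * a = 1 ∧ b * b = 1 ∧ (a * b) * (a * b) = 1

variable {G : Type*} [Group G] [Finite G] {t : G}

theorem conj_mul_self {s g : G} (h : s * s = 1) : g * s * g⁻¹ * (g * s * g⁻¹) = 1 := by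
  rw [show g * s * g⁻¹ * (g * s * g⁻¹) = g * (s * s) * g⁻¹ by group, h, mul_one, mul_inv_cancel]

/-- No involution centralizes an element of order `7`. -/
theorem Local.not_comm (L : Local G t) {s x : G} (hs : s * s = 1) (hs1 : s ≠ 1) (hx : orderOf x = 7) :
    s * x ≠ x * s := by
  intro h
  obtain ⟨c, hc⟩ := isConj_iff.mp (L.invConj s hs hs1)
  have hmem : c * x * c⁻¹ ∈ centralizer ({t} : Set G) := by
    rw [mem_centralizer_singleton_iff, ← hc,
      show c * x * c⁻¹ * (c * s * c⁻¹) = c * (x * s) * c⁻¹ by group, ← h]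
    group
  have h7 := Subgroup.orderOf_dvd_natCard _ hmem
  rw [← MulAut.conj_apply, (MulAut.conj c).orderOf_eq, hx, L.cent] at h7
  norm_num at h7

/-- No involution centralizes every element of a normal subgroup of order `7`. -/
theorem Local.no_seven (L : Local G t) (P : Subgroup G) (hP : P.Normal) : Nat.card P ≠ 7 := by
  intro h7
  haveI := Fact.mk Nat.prime_two
  haveI : Fact (Nat.Prime 7) := ⟨by norm_num⟩
  haveI : IsCyclic P := isCyclic_of_prime_card h7
  obtain ⟨x, hx⟩ := exists_prime_orderOf_dvd_card' (G := P) 7 (by rw [h7])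
  obtain ⟨S⟩ := Sylow.nonempty (p := 2) (G := G)
  let f : (S : Subgroup G) →* MulAut P := (MulAut.conjNormal (H := P)).comp (S : Subgroup G).subtype
  have hker : f.ker ≠ ⊥ := by
    intro hb
    have h1 := Nat.card_congr (MonoidHom.ofInjective ((MonoidHom.ker_eq_bot_iff f).mp hb)).toEquiv
    have h2 := Subgroup.card_subgroup_dvd_card f.range
    rw [← h1, L.sylCard S, IsCyclic.card_mulAut, h7] at h2
    exact absurd h2 (by decide)
  obtain ⟨s, hs, hs1⟩ := f.ker.bot_or_exists_ne_one.resolve_left hker
  have hfix : MulAut.conjNormal (H := P) (s : G) x = x := by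
    have := DFunLike.congr_fun (MonoidHom.mem_ker.mp hs) x
    exact this
  have hcomm : (s : G) * (x : G) = (x : G) * (s : G) := by
    have := congrArg (fun p : P => (p : G)) hfix
    simp only [MulAut.conjNormal_apply] at this
    exact mul_inv_eq_iff_eq_mul.mp this
  exact L.not_comm (L.sylSq S s s.2) (fun h => hs1 (Subtype.ext h))
    (by rw [Subgroup.orderOf_coe]; exact hx) hcomm

/-- There is no nontrivial normal subgroup of odd order. -/
theorem Local.odd_normal (L : Local G t) (O : Subgroup G) (hO : O.Normal) (hodd : Odd (Nat.card O)) :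
    O = ⊥ := by
  haveI : Fact (Nat.Prime 7) := ⟨by norm_num⟩
  have hd : Nat.card O ∣ 1512 := L.card ▸ O.card_subgroup_dvd_card
  have hd' : Nat.card O ∣ 189 := by
    have hc : Nat.Coprime (Nat.card O) 8 := by
      have : Nat.Coprime (Nat.card O) 2 := Nat.coprime_two_right.mpr hodd
      simpa using this.pow_right 3
    exact hc.dvd_of_dvd_mul_right (show Nat.card O ∣ 189 * 8 by simpa using hd)
  by_cases h7 : 7 ∣ Nat.card O
  · exfalso
    obtain ⟨P⟩ := Sylow.nonempty (p := 7) (G := O)
    obtain ⟨q, hq⟩ := h7
    have hq27 : q ∣ 27 := by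
      rw [hq] at hd'
      exact Nat.dvd_of_mul_dvd_mul_left (by norm_num) (show 7 * q ∣ 7 * 27 by simpa using hd')
    have hP : Nat.card (P : Subgroup O) = 7 := by
      rw [Sylow.card_eq_multiplicity, hq, Nat.factorization_mul (by norm_num)
        (fun h => by rw [h] at hq27; norm_num at hq27)]
      have hq7 : ¬ 7 ∣ q := fun h => by
        have := h.trans hq27; norm_num at this
      simp [Nat.Prime.factorization_self (show Nat.Prime 7 by norm_num),
        Nat.factorization_eq_zero_of_not_dvd hq7]
    have h1 : Nat.card (Sylow 7 O) = 1 := by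
      have hdvd : Nat.card (Sylow 7 O) ∣ q := by
        have := P.card_dvd_index
        have hi := (P : Subgroup O).card_mul_index
        rw [hP, hq] at hi
        rwa [Nat.eq_of_mul_eq_mul_left (by norm_num) hi] at this
      have hm := card_sylow_modEq_one 7 O
      have hle : Nat.card (Sylow 7 O) ≤ 27 := Nat.le_of_dvd (by norm_num) (hdvd.trans hq27)
      have h27 := hdvd.trans hq27
      rw [Nat.ModEq] at hm
      interval_cases (Nat.card (Sylow 7 O)) <;> simp_all
    haveI : Subsingleton (Sylow 7 O) := (Nat.card_eq_one_iff_unique.mp h1).1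
    haveI : (P : Subgroup O).Characteristic := Sylow.characteristic_of_subsingleton P
    haveI := hO
    exact L.no_seven ((P : Subgroup O).map O.subtype) inferInstance
      (by rw [card_map_of_injective O.subtype_injective, hP])
  · haveI := Fact.mk Nat.prime_three
    refine L.noThree O hO ?_
    have hd3 : Nat.card O ∣ 3 ^ 3 := by
      have hc : Nat.Coprime (Nat.card O) 7 :=
        ((show Nat.Prime 7 by norm_num).coprime_iff_not_dvd.mpr h7).symm
      exact hc.dvd_of_dvd_mul_right (show Nat.card O ∣ 3 ^ 3 * 7 by simpa using hd')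
    obtain ⟨e, -, he⟩ := (Nat.dvd_prime_pow Nat.prime_three).mp hd3
    exact IsPGroup.of_card he

theorem relIndex_mul_card_inf (N M : Subgroup G) :
    N.relIndex M * Nat.card (N ⊓ M : Subgroup G) = Nat.card M := by
  have h := (N.subgroupOf M).index_mul_card
  have e : Nat.card (N.subgroupOf M) = Nat.card (N ⊓ M : Subgroup G) := by
    rw [← Subgroup.inf_subgroupOf_right]
    exact Nat.card_congr (Subgroup.subgroupOfEquivOfLe (inf_le_right : N ⊓ M ≤ M)).toEquiv
  rw [e] at h
  exact h

/-- A subgroup with all involutions contains every Sylow `2`-subgroup. -/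
theorem Local.sylow_le (L : Local G t) {N : Subgroup G} (hinv : ∀ y : G, y * y = 1 → y ≠ 1 → y ∈ N)
    (S : Sylow 2 G) : (S : Subgroup G) ≤ N := fun x hx => by
  by_cases h : x = 1
  · rw [h]; exact N.one_mem
  · exact hinv x (L.sylSq S x hx) h

/-- A normal subgroup containing all involutions has order at least `504`. -/
theorem Local.big (L : Local G t) (N : Subgroup G) (hN : N.Normal)
    (hinv : ∀ y : G, y * y = 1 → y ≠ 1 → y ∈ N) : Nat.card N = 504 ∨ Nat.card N = 1512 := by
  haveI := hN
  haveI := Fact.mk Nat.prime_two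
  haveI := Fact.mk Nat.prime_three
  haveI : Fact (Nat.Prime 7) := ⟨by norm_num⟩
  obtain ⟨S⟩ := Sylow.nonempty (p := 2) (G := G)
  have hSN := L.sylow_le hinv S
  set M := normalizer ((S : Subgroup G) : Set G) with hM
  have hNM : N ⊔ M = ⊤ := by
    have h := Sylow.normalizer_sup_eq_top (S.subtype hSN)
    rw [Sylow.coe_subtype, map_subgroupOf_eq_of_le hSN, sup_comm] at h
    exact h
  -- the order of `N` is nine times that of `N ⊓ M`
  have h9 : Nat.card N = 9 * Nat.card (N ⊓ M : Subgroup G) := by
    have h1 := relIndex_mul_card_inf N M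
    have h3 : N.relIndex M = N.index := by
      rw [← Subgroup.relIndex_sup_left (K := N) (H := M), hNM, Subgroup.relIndex_top_right]
    have h4 := N.index_mul_card
    rw [h3, L.sylNorm S] at h1
    rw [L.card] at h4
    refine Nat.eq_of_mul_eq_mul_left (Nat.pos_of_ne_zero (Subgroup.index_ne_zero_of_finite (H := N))) ?_
    rw [h4, Nat.mul_left_comm, h1]
  have h8 : 8 ∣ Nat.card (N ⊓ M : Subgroup G) :=
    (L.sylCard S).symm ▸ Subgroup.card_dvd_of_le (le_inf hSN le_normalizer)
  have hdM : Nat.card (N ⊓ M : Subgroup G) ∣ 168 := (L.sylNorm S) ▸ Subgroup.card_dvd_of_le inf_le_right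
  obtain ⟨j, hj⟩ := h8
  have hj21 : j ∣ 21 := by
    rw [hj] at hdM
    exact Nat.dvd_of_mul_dvd_mul_left (by norm_num) (show 8 * j ∣ 8 * 21 by simpa using hdM)
  have hj' : j = 1 ∨ j = 3 ∨ j = 7 ∨ j = 21 := by
    have := Nat.le_of_dvd (by norm_num) hj21
    interval_cases j <;> simp_all
  rcases hj' with rfl | rfl | rfl | rfl
  · exfalso
    have hN72 : Nat.card N = 72 := by rw [h9, hj]
    have hcent : (normalizer (((S.subtype hSN : Sylow 2 N) : Subgroup N) : Set N)) ≤
        centralizer (((S.subtype hSN : Sylow 2 N) : Subgroup N) : Set N) := by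
      intro y hy
      have hyM : (y : G) ∈ N ⊓ M := by
        refine mem_inf.mpr ⟨y.2, ?_⟩
        rw [hM, mem_normalizer_iff]
        intro z
        constructor
        · intro hz
          exact (mem_normalizer_iff.mp hy ⟨z, hSN hz⟩).mp hz
        · intro hz
          have hzN : z ∈ N := by simpa [mul_assoc] using hN.conj_mem _ (hSN hz) (y : G)⁻¹
          exact (mem_normalizer_iff.mp hy ⟨z, hzN⟩).mpr hz
      have hyS : (y : G) ∈ (S : Subgroup G) := by
        have : (S : Subgroup G) = N ⊓ M := Subgroup.eq_of_le_of_card_ge (le_inf hSN le_normalizer)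
          (by rw [hj, L.sylCard S])
        exact this.symm ▸ hyM
      rw [mem_centralizer_iff]
      intro z hz
      refine Subtype.ext ?_
      have hyc : (y : G) ∈ centralizer ((S : Subgroup G) : Set G) := by rw [L.sylCent S]; exact hyS
      exact mem_centralizer_iff.mp hyc (z : G) hz
    set O := (MonoidHom.transferSylow (S.subtype hSN) hcent).ker
    have hcompl := MonoidHom.ker_transferSylow_isComplement' (S.subtype hSN) hcent
    have hO9 : Nat.card O = 9 := by
      have h : Nat.card O * _ = _ := hcompl.card_mul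
      have hS8 : Nat.card ((S.subtype hSN : Sylow 2 N) : Subgroup N) = 8 := by
        rw [Sylow.coe_subtype, Nat.card_congr (Subgroup.subgroupOfEquivOfLe hSN).toEquiv, L.sylCard S]
      rw [hS8, hN72] at h
      omega
    have hOp : IsPGroup 3 O := IsPGroup.of_card (n := 2) hO9
    obtain ⟨Q, hQ⟩ := hOp.exists_le_sylow
    have hOQ : (Q : Subgroup N) = O := (Subgroup.eq_of_le_of_card_ge hQ (by
      obtain ⟨e, he⟩ := Q.isPGroup'.exists_card_eq
      have hd := Subgroup.card_subgroup_dvd_card (Q : Subgroup N)
      rw [he, hN72] at hd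
      have h2 : e ≤ 2 := by
        by_contra hgt
        have h27 : 3 ^ 3 ∣ 72 := (pow_dvd_pow 3 (show 3 ≤ e by omega)).trans hd
        norm_num at h27
      rw [hO9, he]
      calc 3 ^ e ≤ 3 ^ 2 := Nat.pow_le_pow_right (by norm_num) h2
        _ = 9 := by norm_num)).symm
    haveI : (Q : Subgroup N).Normal := hOQ ▸ inferInstance
    haveI : (Q : Subgroup N).Characteristic := Sylow.characteristic_of_normal Q inferInstance
    have := L.odd_normal ((Q : Subgroup N).map N.subtype) inferInstance
      (by rw [card_map_of_injective N.subtype_injective, hOQ, hO9]; decide)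
    rw [Subgroup.map_eq_bot_iff_of_injective _ N.subtype_injective, hOQ] at this
    rw [this, Subgroup.card_bot] at hO9
    norm_num at hO9
  · exfalso
    have hN216 : Nat.card N = 216 := by rw [h9, hj]
    obtain ⟨Q⟩ := Sylow.nonempty (p := 3) (G := N)
    have hQ27 : Nat.card (Q : Subgroup N) = 27 := by
      rw [Sylow.card_eq_multiplicity, hN216, show 216 = 3 ^ 3 * 8 by norm_num,
        Nat.factorization_mul (by norm_num) (by norm_num), Nat.factorization_pow]
      simp [Nat.prime_three.factorization_self, Nat.factorization_eq_zero_of_not_dvd (show ¬ 3 ∣ 8 by norm_num)]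
    set Q' := (Q : Subgroup N).map N.subtype with hQ'
    have hQ'c : Nat.card Q' = 3 ^ (Nat.card G).factorization 3 := by
      rw [hQ', card_map_of_injective N.subtype_injective, hQ27, L.card, show 1512 = 3 ^ 3 * 56 by norm_num,
        Nat.factorization_mul (by norm_num) (by norm_num), Nat.factorization_pow]
      simp [Nat.prime_three.factorization_self, Nat.factorization_eq_zero_of_not_dvd (show ¬ 3 ∣ 56 by norm_num)]
    let U : Sylow 3 G := Sylow.ofCard Q' hQ'c
    apply L.three U
    have hU : (U : Subgroup G) = Q' := Sylow.coe_ofCard _ _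
    rw [hU]
    have hsup := Sylow.normalizer_sup_eq_top Q
    set W := normalizer (Q' : Set G)
    have h1 : N.relIndex W = N.index := by
      rw [← Subgroup.relIndex_sup_left (K := N) (H := W), sup_comm, hsup, Subgroup.relIndex_top_right]
    have h2 : N.index = 7 := by
      have h := N.index_mul_card
      rw [hN216, L.card] at h
      omega
    rw [← h2, ← h1]
    exact Subgroup.relIndex_dvd_card _ _
  · left; rw [h9, hj]
  · right; rw [h9, hj]

/-- All involutions lie in the kernel of a map to a commutative group. -/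
theorem Local.inv_mem_commutator (L : Local G t) {y : G} (h : y * y = 1) (h1 : y ≠ 1) :
    y ∈ commutator G := by
  set f := Abelianization.of (G := G) with hf
  have hc : ∀ z : G, z * z = 1 → z ≠ 1 → f z = f t := by
    intro z hz hz1
    obtain ⟨c, hc⟩ := isConj_iff.mp (L.invConj z hz hz1)
    rw [← hc, map_mul, map_mul, map_inv, mul_comm (f c), mul_inv_cancel_right]
  obtain ⟨a, b, ha, hb, hab, ha2, hb2, hab2⟩ := L.two
  have ht : f t = 1 := by
    have : f (a * b) = f a * f b := map_mul f a b
    rw [hc a ha2 ha, hc b hb2 hb, hc _ hab2 hab] at this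
    exact mul_left_cancel (this.symm.trans (mul_one _).symm)
  have : y ∈ f.ker := MonoidHom.mem_ker.mpr ((hc y h h1).trans ht)
  rwa [hf, Abelianization.ker_of] at this

/-- The derived subgroup is simple of order `504`. -/
theorem Local.derived (L : Local G t) {A : Type*} [CommGroup A] (τ : G →* A) {x : G} (hx : τ x ≠ 1) :
    Nat.card (commutator G) = 504 ∧ IsSimpleGroup (commutator G) := by
  haveI := Fact.mk Nat.prime_two
  haveI := Fact.mk Nat.prime_three
  haveI : Fact (Nat.Prime 7) := ⟨by norm_num⟩
  set D := commutator G with hD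
  have hDn : D.Normal := inferInstance
  have hinvD : ∀ y : G, y * y = 1 → y ≠ 1 → y ∈ D := fun y h h1 => L.inv_mem_commutator h h1
  have h504 : Nat.card D = 504 := by
    rcases L.big D hDn hinvD with h | h
    · exact h
    · exfalso
      have htop : D = ⊤ := Subgroup.eq_top_of_card_eq D (by rw [h, L.card])
      have : x ∈ τ.ker := Abelianization.commutator_subset_ker τ (by rw [← hD, htop]; trivial)
      exact hx (MonoidHom.mem_ker.mp this)
  refine ⟨h504, ?_⟩
  obtain ⟨S⟩ := Sylow.nonempty (p := 2) (G := G)
  have hSD := L.sylow_le hinvD S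
  set M := normalizer ((S : Subgroup G) : Set G) with hM
  -- an element of order seven normalising `S`
  have hDM : 7 ∣ Nat.card (D ⊓ M : Subgroup G) := by
    have h1 := relIndex_mul_card_inf D M
    have h2 : D.index = 3 := by
      have h := D.index_mul_card
      rw [h504, L.card] at h
      omega
    have h3 : D.relIndex M ∣ 3 := h2 ▸ Subgroup.relIndex_dvd_index_of_normal D M
    rw [L.sylNorm S] at h1
    have h7 : 7 ∣ D.relIndex M * Nat.card (D ⊓ M : Subgroup G) := by rw [h1]; norm_num
    exact ((show Nat.Prime 7 by norm_num).dvd_mul.mp h7).resolve_left fun h => by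
      have := h.trans h3; norm_num at this
  obtain ⟨w, hw⟩ := exists_prime_orderOf_dvd_card' (G := (D ⊓ M : Subgroup G)) 7 hDM
  have hw7 : orderOf (w : G) = 7 := by rw [Subgroup.orderOf_coe]; exact hw
  have hwD : (w : G) ∈ D := (mem_inf.mp w.2).1
  have hwM : (w : G) ∈ M := (mem_inf.mp w.2).2
  haveI : Nontrivial D := Finite.one_lt_card_iff_nontrivial.mp (by rw [h504]; norm_num)
  refine ⟨fun N hN => ?_⟩
  haveI := hN
  by_cases hev : 2 ∣ Nat.card N
  · right
    obtain ⟨s, hs⟩ := exists_prime_orderOf_dvd_card' (G := N) 2 hev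
    have hs2 : ((s : D) : G) * (s : D) = 1 := by
      have h := pow_orderOf_eq_one s
      rw [hs, pow_two] at h
      exact congrArg (fun q : N => ((q : D) : G)) h
    have hs1 : ((s : D) : G) ≠ 1 := fun h => by
      have : s = 1 := Subtype.ext (Subtype.ext h)
      rw [this, orderOf_one] at hs; norm_num at hs
    set N' := N.map D.subtype with hN'
    have hsN' : ((s : D) : G) ∈ N' := ⟨s, s.2, rfl⟩
    have hconjN : ∀ d ∈ D, ∀ y ∈ N', d * y * d⁻¹ ∈ N' := by
      rintro d hd _ ⟨y, hy, rfl⟩
      exact ⟨⟨d, hd⟩ * y * (⟨d, hd⟩ : D)⁻¹, hN.conj_mem y hy _, rfl⟩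
    -- a Sylow subgroup is fused by `w`
    have hmove : ∀ a : G, a ∈ S → a ≠ 1 → ∀ y : G, y ∈ S → y ≠ 1 → ∃ j : ℕ, (w : G) ^ j * a * ((w : G) ^ j)⁻¹ = y := by
      intro a ha ha1 y hy hy1
      classical
      haveI := Fintype.ofFinite G
      set f := fun j : ℕ => (w : G) ^ j * a * ((w : G) ^ j)⁻¹ with hf
      have hfS : ∀ j, f j ∈ (S : Subgroup G) := fun j =>
        (mem_normalizer_iff.mp (M.pow_mem hwM j) a).mp ha
      have hf1 : ∀ j, f j ≠ 1 := fun j h => ha1 (conj_eq_one_iff.mp h)
      have hinj : Set.InjOn f ↑(Finset.range 7) := by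
        intro p hp q hq h
        simp only [Finset.coe_range, Set.mem_Iio] at hp hq
        wlog hpq : p ≤ q generalizing p q
        · exact (this h.symm hq hp (by omega)).symm
        by_contra hne
        have hc : Commute ((w : G) ^ (q - p)) a := by
          have e : (w : G) ^ q = (w : G) ^ p * (w : G) ^ (q - p) := by
            rw [← pow_add, Nat.add_sub_cancel' hpq]
          simp only [hf, e, mul_inv_rev] at h
          have h' : a = (w : G) ^ (q - p) * a * ((w : G) ^ (q - p))⁻¹ := by
            have := congrArg (fun z => ((w : G) ^ p)⁻¹ * z * (w : G) ^ p) h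
            simpa [mul_assoc] using this
          exact (eq_mul_inv_iff_mul_eq.mp h').symm
        refine L.not_comm (L.sylSq S a ha) ha1 ?_ hc.symm.eq
        rw [Nat.Coprime.orderOf_pow]
        · exact hw7
        · rw [hw7, Nat.coprime_comm, Nat.coprime_comm]
          exact ((show Nat.Prime 7 by norm_num).coprime_iff_not_dvd.mpr
            (fun h => by have := Nat.le_of_dvd (by omega) h; omega))
      set T := (Finset.univ.filter fun z : G => z ∈ S).erase 1 with hT
      have hTc : T.card = 7 := by
        rw [hT, Finset.card_erase_of_mem (by simp [(S : Subgroup G).one_mem])]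
        have := L.sylCard S
        rw [Nat.card_eq_fintype_card] at this
        rw [← Fintype.card_subtype]
        have e : Fintype.card {z : G // z ∈ S} = 8 := by rw [← this]; exact Fintype.card_congr (Equiv.refl _)
        rw [e]
      have himg : (Finset.range 7).image f = T := Finset.eq_of_subset_of_card_le (by
        intro z hz
        obtain ⟨j, -, rfl⟩ := Finset.mem_image.mp hz
        simp only [hT, Finset.mem_erase, Finset.mem_filter, Finset.mem_univ, true_and]; exact ⟨hf1 j, hfS j⟩) (by rw [Finset.card_image_of_injOn hinj, hTc, Finset.card_range])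
      have hyT : y ∈ (Finset.range 7).image f := by rw [himg]; simp [hT, hy, hy1]
      obtain ⟨j, -, hj⟩ := Finset.mem_image.mp hyT
      exact ⟨j, hj⟩
    have hinto : ∀ a : G, a * a = 1 → a ≠ 1 → ∃ d ∈ D, d * a * d⁻¹ ∈ (S : Subgroup G) := by
      intro a ha ha1
      have haD := hinvD a ha ha1
      have hp : IsPGroup 2 (zpowers (⟨a, haD⟩ : D)) := IsPGroup.of_card (n := 1) (by
        rw [Nat.card_zpowers, pow_one]
        exact orderOf_eq_prime (Subtype.ext (by simpa [pow_two] using ha)) (fun h => ha1 (congrArg Subtype.val h)))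
      obtain ⟨Q, hQ⟩ := hp.exists_le_sylow
      obtain ⟨d, hd⟩ := MulAction.exists_smul_eq D Q (S.subtype hSD)
      refine ⟨(d : G), d.2, ?_⟩
      have h2 : MulAut.conj d • (⟨a, haD⟩ : D) ∈ ((d • Q : Sylow 2 D) : Subgroup D) := by
        rw [Sylow.coe_subgroup_smul]
        exact Subgroup.smul_mem_pointwise_smul _ _ _ (hQ (mem_zpowers _))
      rw [hd, Sylow.coe_subtype, mem_subgroupOf] at h2
      exact h2
    obtain ⟨d₀, hd₀, hs₀⟩ := hinto _ hs2 hs1
    have hall : ∀ y : G, y * y = 1 → y ≠ 1 → y ∈ N' := by
      intro y hy hy1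
      obtain ⟨d, hd, hyS⟩ := hinto y hy hy1
      obtain ⟨j, hj⟩ := hmove _ hs₀ (fun h => hs1 (conj_eq_one_iff.mp h)) _ hyS (fun h => hy1 (conj_eq_one_iff.mp h))
      have h1 : d * y * d⁻¹ ∈ N' := hj ▸ hconjN _ (D.pow_mem hwD j) _ (hconjN _ hd₀ _ hsN')
      have := hconjN d⁻¹ (D.inv_mem hd) _ h1
      simpa [mul_assoc] using this
    have hclo := Subgroup.closure_le N' |>.mpr (show {y : G | y * y = 1 ∧ y ≠ 1} ⊆ N' from fun y hy => hall y hy.1 hy.2)
    set I := Subgroup.closure {y : G | y * y = 1 ∧ y ≠ 1} with hI
    have hIn : I.Normal := by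
      rw [← Subgroup.normalizer_eq_top_iff, eq_top_iff]
      intro g _
      rw [mem_normalizer_iff]
      have key : ∀ g : G, ∀ y ∈ I, g * y * g⁻¹ ∈ I := by
        intro g y hy
        induction hy using Subgroup.closure_induction with
        | mem z hz => exact Subgroup.subset_closure ⟨conj_mul_self hz.1, fun h => hz.2 (conj_eq_one_iff.mp h)⟩
        | one => simp [I.one_mem]
        | mul p q _ _ hp hq => rw [← conj_mul]; exact I.mul_mem hp hq
        | inv p _ hp => rw [← conj_inv]; exact I.inv_mem hp
      exact fun y => ⟨key g y, fun h => by simpa [mul_assoc] using key g⁻¹ _ h⟩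
    have hIc : 504 ≤ Nat.card I := by
      rcases L.big I hIn (fun y h h1 => Subgroup.subset_closure ⟨h, h1⟩) with h | h <;> omega
    have hle : Nat.card I ≤ Nat.card N' := Nat.card_le_card_of_injective _ (Subgroup.inclusion_injective hclo)
    refine Subgroup.eq_top_of_le_card N ?_
    rw [card_map_of_injective D.subtype_injective] at hle
    omega
  · left
    have hd : Nat.card N ∣ 63 := by
      have hd' : Nat.card N ∣ 504 := h504 ▸ N.card_subgroup_dvd_card
      have hc : Nat.Coprime (Nat.card N) 8 := by
        have : Nat.Coprime (Nat.card N) 2 := (Nat.prime_two.coprime_iff_not_dvd.mpr hev).symm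
        simpa using this.pow_right 3
      exact hc.dvd_of_dvd_mul_right (show Nat.card N ∣ 63 * 8 by simpa using hd')
    by_contra hne
    by_cases h7 : 7 ∣ Nat.card N
    · -- a normal Sylow `7`-subgroup of `D`
      obtain ⟨P⟩ := Sylow.nonempty (p := 7) (G := N)
      obtain ⟨q, hq⟩ := h7
      have hq9 : q ∣ 9 := by
        rw [hq] at hd
        exact Nat.dvd_of_mul_dvd_mul_left (by norm_num) (show 7 * q ∣ 7 * 9 by simpa using hd)
      have hP : Nat.card (P : Subgroup N) = 7 := by
        rw [Sylow.card_eq_multiplicity, hq, Nat.factorization_mul (by norm_num)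
          (fun h => by rw [h] at hq9; norm_num at hq9)]
        have hq7 : ¬ 7 ∣ q := fun h => by
          have := h.trans hq9; norm_num at this
        simp [Nat.Prime.factorization_self (show Nat.Prime 7 by norm_num),
          Nat.factorization_eq_zero_of_not_dvd hq7]
      have h1 : Nat.card (Sylow 7 N) = 1 := by
        have hdvd : Nat.card (Sylow 7 N) ∣ q := by
          have := P.card_dvd_index
          have hi := (P : Subgroup N).card_mul_index
          rw [hP, hq] at hi
          rwa [Nat.eq_of_mul_eq_mul_left (by norm_num) hi] at this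
        have hm := card_sylow_modEq_one 7 N
        have hle : Nat.card (Sylow 7 N) ≤ 9 := Nat.le_of_dvd (by norm_num) (hdvd.trans hq9)
        have h9 := hdvd.trans hq9
        rw [Nat.ModEq] at hm
        interval_cases (Nat.card (Sylow 7 N)) <;> simp_all
      haveI : Subsingleton (Sylow 7 N) := (Nat.card_eq_one_iff_unique.mp h1).1
      haveI : (P : Subgroup N).Characteristic := Sylow.characteristic_of_subsingleton P
      set P' := (P : Subgroup N).map N.subtype with hP'
      have hP'7 : Nat.card P' = 7 ^ (Nat.card D).factorization 7 := by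
        rw [hP', card_map_of_injective N.subtype_injective, hP, h504, show 504 = 7 ^ 1 * 72 by norm_num,
          Nat.factorization_mul (by norm_num) (by norm_num), Nat.factorization_pow]
        simp [Nat.Prime.factorization_self (show Nat.Prime 7 by norm_num),
          Nat.factorization_eq_zero_of_not_dvd (show ¬ 7 ∣ 72 by norm_num)]
      let R : Sylow 7 D := Sylow.ofCard P' hP'7
      have hR : (R : Subgroup D) = P' := Sylow.coe_ofCard _ _
      haveI hRn : (R : Subgroup D).Normal := by rw [hR, hP']; infer_instance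
      haveI : (R : Subgroup D).Characteristic := Sylow.characteristic_of_normal R hRn
      refine L.no_seven ((R : Subgroup D).map D.subtype) inferInstance ?_
      rw [card_map_of_injective D.subtype_injective, hR, hP', card_map_of_injective N.subtype_injective, hP]
    · have hd3 : Nat.card N ∣ 3 ^ 2 := by
        have hc : Nat.Coprime (Nat.card N) 7 :=
          ((show Nat.Prime 7 by norm_num).coprime_iff_not_dvd.mpr h7).symm
        exact hc.dvd_of_dvd_mul_right (show Nat.card N ∣ 3 ^ 2 * 7 by simpa using hd)
      obtain ⟨e, -, he⟩ := (Nat.dvd_prime_pow Nat.prime_three).mp hd3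
      have hNp : IsPGroup 3 N := IsPGroup.of_card he
      -- the join of all normal `3`-subgroups is characteristic
      let core : Subgroup D := sSup {X : Subgroup D | X.Normal ∧ IsPGroup 3 X}
      have hcoreS : ∀ P : Sylow 3 D, core ≤ P := fun P => sSup_le fun X hX => by
        haveI := hX.1
        obtain ⟨R, hR⟩ := hX.2.exists_le_sylow
        obtain ⟨d, hd⟩ := MulAction.exists_smul_eq D R P
        intro z hz
        have hz' : d⁻¹ * z * d ∈ (R : Subgroup D) := hR (by simpa using hX.1.conj_mem z hz d⁻¹)
        rw [← hd, Sylow.coe_subgroup_smul, Subgroup.mem_pointwise_smul_iff_inv_smul_mem]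
        simpa [MulAut.smul_def, MulAut.conj_inv_apply] using hz'
      obtain ⟨P⟩ := Sylow.nonempty (p := 3) (G := D)
      have hcp : IsPGroup 3 core := P.isPGroup'.to_le (hcoreS P)
      haveI : core.Characteristic := by
        rw [Subgroup.characteristic_iff_map_le]
        intro φ
        rw [show core.map φ.toMonoidHom = ⨆ X ∈ {X : Subgroup D | X.Normal ∧ IsPGroup 3 X}, X.map φ.toMonoidHom by
          simp only [core, sSup_eq_iSup, Subgroup.map_iSup]]
        refine iSup₂_le fun X hX => le_sSup ⟨?_, hX.2.map _⟩
        exact hX.1.map _ φ.surjective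
      have hbot := L.noThree (core.map D.subtype) inferInstance (hcp.map _)
      rw [Subgroup.map_eq_bot_iff_of_injective _ D.subtype_injective] at hbot
      exact hne (le_bot_iff.mp (hbot ▸ le_sSup ⟨hN, hNp⟩))

end CfsgLib.ReeThree
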