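import Cfsg.Agent.ReeThree.Generic
import Cfsg.Agent.Chev.Ree.Counts
import Cfsg.Agent.Chev.Ree.LocalNormalizers
import Cfsg.Agent.Chev.Ree.SylowTwoNormalizer
import Cfsg.Agent.Chev.Ree.Field
import Cfsg.Agent.Transfer.HallWielandt

/-!
The Ree group over three elements satisfies `Local`, and maps onto a group of order three.
-/

set_option autoImplicit false
set_option maxRecDepth 100000
set_option linter.style.haveILetI false
set_option linter.unusedSectionVars false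

namespace CfsgLib.ReeThree

open Cfsg.Lie CfsgLib.Chev

local notation "K₃" => ZMod 3
local notation "G₃" => twistedG2 (ZMod 3) (3 ^ 0)

theorem hK₃ : Nat.card K₃ = 3 ^ (2 * 0 + 1) := by simp

theorem hm_mem_BG : Ree.hmG K₃ 0 ∈ Ree.BG K₃ 0 :=
  (Ree.mem_BG 0).2 (Subgroup.mem_sup_right Ree.hm_mem_diag)

theorem card_G₃ : Nat.card ↥G₃ = 1512 := by
  rw [Ree.card_group 0 hK₃]
  norm_num

theorem card_BG₃ : Nat.card ↥(Ree.BG K₃ 0) = 54 := by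
  rw [Ree.card_BG 0 hK₃]
  norm_num

/-- The Sylow subgroup of upper unitriangular elements. -/
noncomputable def U₃ : Sylow 3 ↥G₃ := (Ree.exists_UG 0 hK₃).choose

theorem mem_U₃ {g : ↥G₃} : g ∈ (U₃ : Subgroup ↥G₃) ↔ (g : GL chevG2.Idx K₃) ∈ chevG2.posUnipotent K₃ :=
  (Ree.exists_UG 0 hK₃).choose_spec g

theorem U₃_le_BG : (U₃ : Subgroup ↥G₃) ≤ Ree.BG K₃ 0 := fun _ hg =>
  (Ree.mem_BG 0).2 (Subgroup.mem_sup_left (mem_U₃.1 hg))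

theorem card_U₃ : Nat.card ↥(U₃ : Subgroup ↥G₃) = 27 := by
  rw [Sylow.card_eq_multiplicity, card_G₃, show 1512 = 3 ^ 3 * 56 by norm_num,
    Nat.factorization_mul (by norm_num) (by norm_num), Nat.factorization_pow]
  simp [Nat.prime_three.factorization_self, Nat.factorization_eq_zero_of_not_dvd (show ¬ 3 ∣ 56 by norm_num)]

theorem mem_BG_of_conj {y g : ↥G₃} (hy : y ∈ (U₃ : Subgroup ↥G₃)) (hy1 : y ≠ 1)
    (hg : g * y * g⁻¹ ∈ (U₃ : Subgroup ↥G₃)) : g ∈ Ree.BG K₃ 0 :=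
  (Ree.mem_BG 0).2 (Ree.conj_mem_borel 0 hK₃ (mem_U₃.1 hy) hy1 (mem_U₃.1 hg))

theorem exists_ne_one : ∃ y ∈ (U₃ : Subgroup ↥G₃), y ≠ 1 :=
  (U₃ : Subgroup ↥G₃).bot_or_exists_ne_one.resolve_left fun h => by
    have := card_U₃
    rw [h, Subgroup.card_bot] at this
    norm_num at this

theorem normalizer_le_BG : Subgroup.normalizer ((U₃ : Subgroup ↥G₃) : Set G₃) ≤ Ree.BG K₃ 0 := by
  intro g hg
  obtain ⟨y, hy, hy1⟩ := exists_ne_one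
  exact mem_BG_of_conj hy hy1 ((Subgroup.mem_normalizer_iff.1 hg y).1 hy)

theorem sylow_three (U : Sylow 3 ↥G₃) : ¬ 7 ∣ Nat.card ↥(Subgroup.normalizer ((U : Subgroup ↥G₃) : Set G₃)) := by
  obtain ⟨c, hc⟩ := MulAction.exists_smul_eq ↥G₃ U₃ U
  have e : Subgroup.normalizer ((U : Subgroup ↥G₃) : Set G₃) =
      (Subgroup.normalizer ((U₃ : Subgroup ↥G₃) : Set G₃)).map (MulAut.conj c).toMonoidHom := by
    rw [Subgroup.map_equiv_normalizer_eq, ← hc]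
    rfl
  rw [e, Subgroup.card_map_of_injective (MulEquiv.injective _)]
  intro h
  have h54 := h.trans (card_BG₃ ▸ Subgroup.card_dvd_of_le normalizer_le_BG)
  norm_num at h54

theorem no_three (O : Subgroup ↥G₃) (hO : O.Normal) (hp : IsPGroup 3 ↥O) : O = ⊥ := by
  by_contra hne
  obtain ⟨Q, hQ⟩ := hp.exists_le_sylow
  obtain ⟨c, hc⟩ := MulAction.exists_smul_eq ↥G₃ Q U₃
  have hle : O ≤ (U₃ : Subgroup ↥G₃) := fun z hz => by
    have hz' : c⁻¹ * z * c ∈ (Q : Subgroup ↥G₃) := hQ (by simpa using hO.conj_mem z hz c⁻¹)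
    rw [← hc, Sylow.coe_subgroup_smul, Subgroup.mem_pointwise_smul_iff_inv_smul_mem]
    simpa [MulAut.smul_def, MulAut.conj_inv_apply] using hz'
  obtain ⟨y, hy, hy1⟩ := O.bot_or_exists_ne_one.resolve_left hne
  have htop : Ree.BG K₃ 0 = ⊤ := eq_top_iff.2 fun g _ =>
    mem_BG_of_conj (hle hy) hy1 (hle (hO.conj_mem y hy g))
  have h := card_BG₃
  rw [htop, Subgroup.card_top, card_G₃] at h
  norm_num at h

theorem sq_of_isConj {y : ↥G₃} (h : IsConj y (Ree.hmG K₃ 0)) : y ≠ 1 ∧ y * y = 1 := by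
  obtain ⟨c, hc⟩ := isConj_iff.1 h
  refine ⟨fun e => Ree.hmG_ne_one 0 hK₃ (by rw [← hc, e]; group), ?_⟩
  calc y * y = c⁻¹ * ((c * y * c⁻¹) * (c * y * c⁻¹)) * c := by group
    _ = 1 := by rw [hc, Ree.hmG_mul_self 0 hK₃]; group

theorem local₃ : Local ↥G₃ (Ree.hmG K₃ 0) where
  card := card_G₃
  inv := Ree.hmG_mul_self 0 hK₃
  invConj y h h1 := Ree.isConj_hm 0 hK₃ h h1
  cent := by
    show Nat.card ↥(Ree.Ch K₃ 0) = 24
    rw [Ree.card_Ch 0 hK₃]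
    norm_num
  sylCard S := (Ree.sylow_conj 0 hK₃ S).1
  sylSq S x hx := Ree.sylow_sq 0 hK₃ S hx
  sylCent S := (Ree.sylow_two_normalizer 0 hK₃ S).1
  sylNorm S := (Ree.sylow_two_normalizer 0 hK₃ S).2
  three := sylow_three
  noThree := no_three
  two := by
    have hb := sq_of_isConj (Ree.nG_isConj (K := K₃) 0 hK₃)
    have hab := sq_of_isConj (Ree.hm_nG_isConj (K := K₃) 0 hK₃)
    exact ⟨Ree.hmG K₃ 0, Ree.nG K₃ 0, Ree.hmG_ne_one 0 hK₃, hb.1, hab.1, Ree.hmG_mul_self 0 hK₃, hb.2, hab.2⟩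

/-! ### The map onto a group of order three -/

local notation "B₃" => Multiplicative (ZMod 3)

open scoped Classical in
/-- The character `u - t²` of the unipotent radical. -/
noncomputable def chi (g : ↥G₃) : B₃ :=
  if h : ∃ p : K₃ × K₃ × K₃, g = Ree.wr 0 p.1 p.2.1 p.2.2 then
    Multiplicative.ofAdd (h.choose.2.1 - h.choose.1 ^ 2) else 1

theorem chi_wr (t u v : K₃) : chi (Ree.wr 0 t u v) = Multiplicative.ofAdd (u - t ^ 2) := by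
  classical
  have hex : ∃ p : K₃ × K₃ × K₃, Ree.wr 0 t u v = Ree.wr 0 p.1 p.2.1 p.2.2 := ⟨(t, u, v), rfl⟩
  rw [chi, dif_pos hex]
  obtain ⟨h1, h2, -⟩ := Ree.wr_inj 0 hex.choose_spec
  rw [← h1, ← h2]

theorem exists_wr₃ {g : ↥G₃} (hg : g ∈ (U₃ : Subgroup ↥G₃)) : ∃ t u v : K₃, g = Ree.wr 0 t u v :=
  Ree.exists_wr 0 hK₃ (mem_U₃.1 hg)

theorem wr_mem_U₃ (t u v : K₃) : Ree.wr 0 t u v ∈ (U₃ : Subgroup ↥G₃) := mem_U₃.2 (Ree.wr_mem_pos 0 t u v)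

theorem cube_id (t : K₃) : t ^ (3 * 3 ^ 0) = t := by revert t; decide

theorem chi_mul {a b : ↥G₃} (ha : a ∈ (U₃ : Subgroup ↥G₃)) (hb : b ∈ (U₃ : Subgroup ↥G₃)) :
    chi (a * b) = chi a * chi b := by
  obtain ⟨t, u, v, rfl⟩ := exists_wr₃ ha
  obtain ⟨t', u', v', rfl⟩ := exists_wr₃ hb
  rw [Ree.wr_mul 0 hK₃, chi_wr, chi_wr, chi_wr, cube_id, ← ofAdd_add]
  congr 1
  have h3 : (3 : K₃) = 0 := by decide
  linear_combination (-(t * t')) * h3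

theorem hm_inv₃ : (Ree.hmG K₃ 0)⁻¹ = Ree.hmG K₃ 0 := inv_eq_of_mul_eq_one_right (Ree.hmG_mul_self 0 hK₃)

theorem hm_conj_U₃ {a : ↥G₃} (ha : a ∈ (U₃ : Subgroup ↥G₃)) :
    Ree.hmG K₃ 0 * a * Ree.hmG K₃ 0 ∈ (U₃ : Subgroup ↥G₃) ∧
      chi (Ree.hmG K₃ 0 * a * Ree.hmG K₃ 0) = chi a := by
  obtain ⟨t, u, v, rfl⟩ := exists_wr₃ ha
  have h := Ree.hm_conj_wr 0 hK₃ t u v
  rw [hm_inv₃] at h
  rw [h, chi_wr, chi_wr, neg_sq]
  exact ⟨wr_mem_U₃ _ _ _, rfl⟩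

theorem hm_not_mem : Ree.hmG K₃ 0 ∉ (U₃ : Subgroup ↥G₃) := fun h => by
  have h2 := Subgroup.orderOf_dvd_natCard _ h
  rw [Ree.orderOf_hmG 0 hK₃, card_U₃] at h2
  norm_num at h2

theorem decomp {b : ↥G₃} (hb : b ∈ Ree.BG K₃ 0) (hbU : b ∉ (U₃ : Subgroup ↥G₃)) :
    b * Ree.hmG K₃ 0 ∈ (U₃ : Subgroup ↥G₃) := by
  have h2 : ((U₃ : Subgroup ↥G₃).subgroupOf (Ree.BG K₃ 0)).index = 2 := by
    have h := ((U₃ : Subgroup ↥G₃).subgroupOf (Ree.BG K₃ 0)).index_mul_card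
    rw [Nat.card_congr (Subgroup.subgroupOfEquivOfLe U₃_le_BG).toEquiv, card_U₃, card_BG₃] at h
    omega
  have h := Subgroup.mul_mem_iff_of_index_two h2 (a := ⟨b, hb⟩) (b := ⟨Ree.hmG K₃ 0, hm_mem_BG⟩)
  simp only [Subgroup.mem_subgroupOf, MulMemClass.coe_mul] at h
  exact h.2 ⟨fun h' => absurd h' hbU, fun h' => absurd h' hm_not_mem⟩

open scoped Classical in
/-- The extension of `chi` to the Borel subgroup. -/
noncomputable def piB (b : ↥G₃) : B₃ :=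
  if b ∈ (U₃ : Subgroup ↥G₃) then chi b else chi (b * Ree.hmG K₃ 0)

theorem piB_U {u : ↥G₃} (hu : u ∈ (U₃ : Subgroup ↥G₃)) : piB u = chi u := by
  classical exact if_pos hu

theorem piB_hm {u : ↥G₃} (hu : u ∈ (U₃ : Subgroup ↥G₃)) : piB (u * Ree.hmG K₃ 0) = chi u := by
  classical
  rw [piB, if_neg fun h => hm_not_mem (by simpa using mul_mem (inv_mem hu) h), mul_assoc,
    Ree.hmG_mul_self 0 hK₃, mul_one]

theorem piB_mul {a b : ↥G₃} (ha : a ∈ Ree.BG K₃ 0) (hb : b ∈ Ree.BG K₃ 0) :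
    piB (a * b) = piB a * piB b := by
  have key : ∀ c ∈ Ree.BG K₃ 0, ∃ u ∈ (U₃ : Subgroup ↥G₃), c = u ∨ c = u * Ree.hmG K₃ 0 := by
    intro c hc
    by_cases h : c ∈ (U₃ : Subgroup ↥G₃)
    · exact ⟨c, h, Or.inl rfl⟩
    · exact ⟨_, decomp hc h, Or.inr (by rw [mul_assoc, Ree.hmG_mul_self 0 hK₃, mul_one])⟩
  obtain ⟨x, hx, ea⟩ := key a ha
  obtain ⟨y, hy, eb⟩ := key b hb
  rcases ea with ea | ea <;> rcases eb with eb | eb <;> rw [ea, eb]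
  · rw [piB_U (mul_mem hx hy), piB_U hx, piB_U hy, chi_mul hx hy]
  · rw [← mul_assoc, piB_hm (mul_mem hx hy), piB_U hx, piB_hm hy, chi_mul hx hy]
  · obtain ⟨h1, h2⟩ := hm_conj_U₃ hy
    have e : x * Ree.hmG K₃ 0 * y = x * (Ree.hmG K₃ 0 * y * Ree.hmG K₃ 0) * Ree.hmG K₃ 0 := by
      simp only [mul_assoc, Ree.hmG_mul_self 0 hK₃, mul_one]
    rw [e, piB_hm (mul_mem hx h1), piB_hm hx, piB_U hy, chi_mul hx h1, h2]
  · obtain ⟨h1, h2⟩ := hm_conj_U₃ hy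
    have e : x * Ree.hmG K₃ 0 * (y * Ree.hmG K₃ 0) = x * (Ree.hmG K₃ 0 * y * Ree.hmG K₃ 0) := by
      simp only [mul_assoc]
    rw [e, piB_U (mul_mem hx h1), piB_hm hx, piB_hm hy, chi_mul hx h1, h2]

/-- The projection of the Borel subgroup. -/
noncomputable def piHom : ↥(Ree.BG K₃ 0) →* B₃ :=
  MonoidHom.mk' (fun b => piB b.1) (fun a b => piB_mul a.2 b.2)

theorem commutator_form {a b : ↥G₃} (ha : a ∈ (U₃ : Subgroup ↥G₃)) (hb : b ∈ (U₃ : Subgroup ↥G₃)) :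
    ∃ c : K₃, a⁻¹ * b⁻¹ * a * b = Ree.wr 0 0 0 c := by
  obtain ⟨t, u, v, rfl⟩ := exists_wr₃ ha
  obtain ⟨t', u', v', rfl⟩ := exists_wr₃ hb
  refine ⟨(v + v' - t' ^ (3 * 3 ^ 0) * t ^ 2 - (u - t' ^ (3 * 3 ^ 0) * t) * t') -
    (v' + v - t ^ (3 * 3 ^ 0) * t' ^ 2 - (u' - t ^ (3 * 3 ^ 0) * t') * t), ?_⟩
  rw [show ∀ x y z : ↥G₃, (x⁻¹ * y⁻¹ * x * y = z) ↔ x * y = y * x * z from fun x y z => by
    constructor
    · rintro rfl; group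
    · intro h; rw [mul_assoc (x⁻¹ * y⁻¹) x y, h]; group]
  rw [Ree.wr_mul 0 hK₃, Ree.wr_mul 0 hK₃, Ree.wr_mul_low 0 hK₃, cube_id, cube_id]
  congr 1 <;> ring

theorem wr_central (c t u v : K₃) : Ree.wr 0 0 0 c * Ree.wr 0 t u v = Ree.wr 0 t u v * Ree.wr 0 0 0 c := by
  rw [Ree.wr_mul 0 hK₃, Ree.wr_mul_low 0 hK₃, cube_id]
  congr 1 <;> ring

theorem pow_three_B : ∀ b : B₃, b ^ 3 = 1 := by decide

theorem exists_tau : ∃ (τ : ↥G₃ →* B₃) (x : ↥G₃), τ x ≠ 1 := by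
  haveI : Fact (Nat.Prime 3) := ⟨Nat.prime_three⟩
  have hQ : Cfsg.IsWeaklyClosed (U₃ : Subgroup ↥G₃) (U₃ : Subgroup ↥G₃) :=
    ⟨le_rfl, fun g hg => Subgroup.eq_of_le_of_card_ge hg
      (by rw [Subgroup.card_map_of_injective (MulEquiv.injective _)])⟩
  have hN : ∀ g : ↥G₃, (U₃ : Subgroup ↥G₃).map (MulAut.conj g).toMonoidHom = U₃ → g ∈ Ree.BG K₃ 0 := by
    intro g hg
    obtain ⟨y, hy, hy1⟩ := exists_ne_one
    have h : g * y * g⁻¹ ∈ (U₃ : Subgroup ↥G₃) := by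
      rw [← hg]; exact ⟨y, hy, rfl⟩
    exact mem_BG_of_conj hy hy1 h
  have he : ∀ u ∈ (U₃ : Subgroup ↥G₃), ∀ z ∈ (U₃ : Subgroup ↥G₃),
      (fun y : ↥G₃ => y⁻¹ * z⁻¹ * y * z)^[3 - 1] u = 1 := by
    intro u hu z hz
    show (u⁻¹ * z⁻¹ * u * z)⁻¹ * z⁻¹ * (u⁻¹ * z⁻¹ * u * z) * z = 1
    obtain ⟨c, hc⟩ := commutator_form hu hz
    obtain ⟨t, w, v, rfl⟩ := exists_wr₃ hz
    rw [hc, mul_assoc _ (Ree.wr 0 0 0 c), wr_central, mul_assoc, ← mul_assoc ((Ree.wr 0 t w v)⁻¹), inv_mul_cancel,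
      one_mul, inv_mul_cancel]
  obtain ⟨τ, hτ⟩ := CfsgLib.HallWielandt.exists_surjective U₃ hQ U₃_le_BG hN
    (fun u hu z hz => mul_mem (mul_mem (inv_mem hu) hz) hu) (CfsgLib.HallWielandt.weakEngel_of_engel he)
    (B := B₃) pow_three_B piHom (fun b => ⟨Ree.wr 0 0 (Multiplicative.toAdd b) 0, wr_mem_U₃ _ _ _, by
      show piB _ = b
      rw [piB_U (wr_mem_U₃ _ _ _), chi_wr]
      simp⟩)
  obtain ⟨x, -, hx⟩ := hτ (Multiplicative.ofAdd (1 : ZMod 3))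
  exact ⟨τ, x, by rw [hx, ne_eq, ofAdd_eq_one]; exact one_ne_zero⟩

/-- The derived subgroup of the Ree group over three elements. -/
theorem derived₃ : Nat.card ↥(commutator ↥G₃) = 504 ∧ IsSimpleGroup ↥(commutator ↥G₃) := by
  obtain ⟨τ, x, hx⟩ := exists_tau
  exact local₃.derived τ hx

end CfsgLib.ReeThree
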